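import Mathlib
import Cfsg.Agent.Lib.Char.Integrality

set_option autoImplicit false

namespace Cfsg.Agent.Lib.CharFS.RealForm

open scoped ComplexConjugate

universe u

variable {G : Type u} [Group G] {n : ℕ}

/-- A real structure commuting with a representation yields a real representation with the same
trace. -/
theorem exists_real_rep_of_real_structure (ρ : Representation ℂ G (Fin n → ℂ))
    (K : (Fin n → ℂ) →ₛₗ[starRingEnd ℂ] (Fin n → ℂ)) (hK : ∀ x, K (K x) = x)
    (hcomm : ∀ g x, K (ρ g x) = ρ g (K x)) :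
    ∃ (m : ℕ) (ρR : Representation ℝ G (Fin m → ℝ)), ∀ g : G,
      ((LinearMap.trace ℝ (Fin m → ℝ) (ρR g) : ℝ) : ℂ) = LinearMap.trace ℂ (Fin n → ℂ) (ρ g) := by
  classical
  -- the real form
  let W : Submodule ℝ (Fin n → ℂ) :=
    { carrier := {x | K x = x}
      add_mem' := by
        intro a b ha hb
        simp only [Set.mem_ofPred_eq] at *
        rw [map_add, ha, hb]
      zero_mem' := by simp
      smul_mem' := by
        intro c x hx
        simp only [Set.mem_ofPred_eq] at *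
        have h1 : c • x = (c : ℂ) • x := by
          funext i
          simp [Complex.real_smul]
        rw [h1, LinearMap.map_smulₛₗ, hx]
        simp }
  have hW : ∀ x, x ∈ W ↔ K x = x := fun x => Iff.rfl
  have hstab : ∀ (g : G), ∀ x ∈ W, ρ g x ∈ W := by
    intro g x hx
    rw [hW] at hx ⊢
    rw [hcomm, hx]
  let R : Representation ℝ G W :=
    { toFun := fun g => ((ρ g).restrictScalars ℝ).restrict (hstab g)
      map_one' := by
        ext x
        simp
      map_mul' := by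
        intro a b
        refine LinearMap.ext fun x => Subtype.ext ?_
        change ρ (a * b) (x : Fin n → ℂ) = ρ a (ρ b (x : Fin n → ℂ))
        rw [map_mul]
        rfl }
  have hRapply : ∀ g (x : W), ((R g x : W) : Fin n → ℂ) = ρ g (x : Fin n → ℂ) := fun _ _ => rfl
  let m := Module.finrank ℝ W
  let b : Module.Basis (Fin m) ℝ W := Module.finBasis ℝ W
  let e : W ≃ₗ[ℝ] (Fin m → ℝ) := b.equivFun
  let ρR : Representation ℝ G (Fin m → ℝ) :=
    { toFun := fun g => e.toLinearMap ∘ₗ R g ∘ₗ e.symm.toLinearMap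
      map_one' := by
        ext x
        simp
      map_mul' := by
        intro a c
        ext x
        simp }
  refine ⟨m, ρR, fun g => ?_⟩
  have htr1 : LinearMap.trace ℝ (Fin m → ℝ) (ρR g) = LinearMap.trace ℝ W (R g) := by
    change LinearMap.trace ℝ (Fin m → ℝ) (e.toLinearMap ∘ₗ R g ∘ₗ e.symm.toLinearMap) = _
    change LinearMap.trace ℝ (Fin m → ℝ) (e.conj (R g)) = _
    exact LinearMap.trace_conj' _ e
  rw [htr1]
  -- the complex basis
  let c : Fin m → (Fin n → ℂ) := fun i => (b i : Fin n → ℂ)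
  have hcK : ∀ i, K (c i) = c i := fun i => (b i).2
  have hsmulR : ∀ (r : ℝ) (x : Fin n → ℂ), (r : ℂ) • x = r • x := by
    intro r x
    funext i
    simp [Complex.real_smul]
  have hreal : ∀ a : Fin m → ℝ, ∑ i, ((a i : ℝ) : ℂ) • c i = 0 → ∀ i, a i = 0 := by
    intro a ha
    have h1 : ∑ i, a i • b i = 0 := by
      apply Subtype.ext
      have : ((∑ i, a i • b i : W) : Fin n → ℂ) = ∑ i, ((a i : ℝ) : ℂ) • c i := by
        simp only [AddSubmonoidClass.coe_finsetSum, SetLike.val_smul]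
        exact Finset.sum_congr rfl (fun i _ => (hsmulR _ _).symm)
      rw [this, ha]
      rfl
    exact Fintype.linearIndependent_iff.1 b.linearIndependent a h1
  have hli : LinearIndependent ℂ c := by
    rw [Fintype.linearIndependent_iff]
    intro a ha i
    have h2 : ∑ i, conj (a i) • c i = 0 := by
      have := congrArg K ha
      simp only [map_sum, LinearMap.map_smulₛₗ, hcK, map_zero] at this
      exact this
    have h3 : ∑ i, (((a i).re : ℝ) : ℂ) • c i = 0 := by
      have h4 : ∀ i, (((a i).re : ℝ) : ℂ) • c i = (1 / 2 : ℂ) • (a i • c i + conj (a i) • c i) := by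
        intro i
        rw [← add_smul, smul_smul]
        congr 1
        rw [Complex.add_conj]
        push_cast
        ring
      simp only [h4, ← Finset.smul_sum, Finset.sum_add_distrib, ha, h2, add_zero, smul_zero]
    have h5 : ∑ i, (((a i).im : ℝ) : ℂ) • c i = 0 := by
      have h4 : ∀ i, (((a i).im : ℝ) : ℂ) • c i
          = (1 / (2 * Complex.I) : ℂ) • (a i • c i - conj (a i) • c i) := by
        intro i
        rw [← sub_smul, smul_smul]
        congr 1
        rw [Complex.sub_conj]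
        field_simp
        push_cast
        ring
      simp only [h4, ← Finset.smul_sum, Finset.sum_sub_distrib, ha, h2, sub_zero, smul_zero]
    have h6 := hreal _ h3 i
    have h7 := hreal _ h5 i
    exact Complex.ext h6 h7
  have hWspan : ∀ y : W, (y : Fin n → ℂ) = ∑ j, ((b.repr y j : ℝ) : ℂ) • c j := by
    intro y
    have h1 : ((∑ j, b.repr y j • b j : W) : Fin n → ℂ) = ∑ j, ((b.repr y j : ℝ) : ℂ) • c j := by
      simp only [AddSubmonoidClass.coe_finsetSum, SetLike.val_smul]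
      exact Finset.sum_congr rfl (fun i _ => (hsmulR _ _).symm)
    rw [← h1, b.sum_repr]
  have hWs : ∀ y : W, (y : Fin n → ℂ) ∈ Submodule.span ℂ (Set.range c) := by
    intro y
    rw [hWspan y]
    exact Submodule.sum_mem _ (fun j _ => Submodule.smul_mem _ _ (Submodule.subset_span ⟨j, rfl⟩))
  have hsp : ⊤ ≤ Submodule.span ℂ (Set.range c) := by
    intro x _
    have h2c : (starRingEnd ℂ) (2 : ℂ) = 2 := by
      rw [Complex.conj_eq_iff_real]
      exact ⟨2, by simp⟩
    have hu : (1 / 2 : ℂ) • (x + K x) ∈ W := by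
      rw [hW, LinearMap.map_smulₛₗ, map_add, hK, add_comm (K x)]
      congr 1
      simp only [map_div₀, map_one, h2c]
    have hv : (1 / (2 * Complex.I) : ℂ) • (x - K x) ∈ W := by
      rw [hW, LinearMap.map_smulₛₗ, map_sub, hK, ← neg_sub, smul_neg, ← neg_smul]
      congr 1
      simp only [map_div₀, map_one, map_mul, Complex.conj_I, h2c]
      field_simp
    have hx : x = (1 / 2 : ℂ) • (x + K x) + Complex.I • ((1 / (2 * Complex.I) : ℂ) • (x - K x)) := by
      rw [smul_smul]
      have : Complex.I * (1 / (2 * Complex.I)) = 1 / 2 := by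
        field_simp
      rw [this, ← smul_add]
      have h2 : x + K x + (x - K x) = (2 : ℂ) • x := by
        rw [two_smul]
        abel
      rw [h2, smul_smul]
      norm_num
    rw [hx]
    exact Submodule.add_mem _ (hWs ⟨_, hu⟩) (Submodule.smul_mem _ _ (hWs ⟨_, hv⟩))
  let cb : Module.Basis (Fin m) ℂ (Fin n → ℂ) := Module.Basis.mk hli hsp
  have hcb : ∀ i, cb i = c i := fun i => by simp [cb]
  rw [LinearMap.trace_eq_matrix_trace ℝ b, LinearMap.trace_eq_matrix_trace ℂ cb]
  simp only [Matrix.trace, Matrix.diag_apply, LinearMap.toMatrix_apply]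
  push_cast
  refine Finset.sum_congr rfl (fun i _ => ?_)
  have h1 : ρ g (cb i) = ∑ j, ((b.repr (R g (b i)) j : ℝ) : ℂ) • cb j := by
    rw [hcb]
    simp only [hcb]
    rw [← hWspan]
    rfl
  rw [h1, cb.repr_sum_self]

section Forms

open Matrix

variable [Fintype G] (ρ : Representation ℂ G (Fin n → ℂ))

theorem star_dot_self (v : Fin n → ℂ) : star v ⬝ᵥ v = ((∑ i, ‖v i‖ ^ 2 : ℝ) : ℂ) := by
  simp only [dotProduct, Pi.star_apply]
  push_cast
  refine Finset.sum_congr rfl (fun i _ => ?_)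
  rw [Complex.star_def, Complex.conj_mul']

theorem sum_norm_pos {v : Fin n → ℂ} (hv : v ≠ 0) : 0 < ∑ i, ‖v i‖ ^ 2 := by
  obtain ⟨i, hi⟩ := Function.ne_iff.1 hv
  refine Finset.sum_pos' (fun _ _ => by positivity) ⟨i, Finset.mem_univ _, ?_⟩
  have : ‖v i‖ ≠ 0 := norm_ne_zero_iff.2 hi
  positivity

/-- An invariant symmetric form on an irreducible representation gives a real structure. -/
theorem exists_real_structure [ρ.IsIrreducible] (M : Matrix (Fin n) (Fin n) ℂ) (hM0 : M ≠ 0)
    (hMT : Mᵀ = M) (hM : ∀ g : G, (LinearMap.toMatrix' (ρ g))ᵀ * M * LinearMap.toMatrix' (ρ g) = M) :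
    ∃ K : (Fin n → ℂ) →ₛₗ[starRingEnd ℂ] (Fin n → ℂ), (∀ x, K (K x) = x) ∧
      ∀ g x, K (ρ g x) = ρ g (K x) := by
  classical
  let A : G → Matrix (Fin n) (Fin n) ℂ := fun g => LinearMap.toMatrix' (ρ g)
  have hA : ∀ g x, ρ g x = A g *ᵥ x := fun g x => (LinearMap.toMatrix'_mulVec _ _).symm
  have hAmul : ∀ a b, A (a * b) = A a * A b := by
    intro a b
    simp only [A, map_mul]
    exact LinearMap.toMatrix'_mul _ _
  have hAone : A 1 = 1 := by
    simp only [A, map_one]
    exact LinearMap.toMatrix'_one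
  let H : Matrix (Fin n) (Fin n) ℂ := ∑ g, (A g)ᴴ * A g
  have hHinv : ∀ g, (A g)ᴴ * H * A g = H := by
    intro g
    simp only [H, Finset.mul_sum, Finset.sum_mul]
    refine Fintype.sum_equiv (Equiv.mulRight g) _ _ (fun h => ?_)
    simp only [Equiv.coe_mulRight, hAmul, conjTranspose_mul, Matrix.mul_assoc]
  -- the positive form
  let r : (Fin n → ℂ) → ℝ := fun x => ∑ g, ∑ i, ‖(A g *ᵥ x) i‖ ^ 2
  have hq : ∀ x, star x ⬝ᵥ H *ᵥ x = ((r x : ℝ) : ℂ) := by
    intro x
    simp only [H, r, Matrix.sum_mulVec, dotProduct_sum]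
    push_cast
    refine Finset.sum_congr rfl (fun g _ => ?_)
    rw [← Matrix.mulVec_mulVec, Matrix.dotProduct_mulVec, ← star_mulVec, star_dot_self]
    push_cast
    rfl
  have hrpos : ∀ x, x ≠ 0 → 0 < r x := by
    intro x hx
    refine Finset.sum_pos' (fun _ _ => Finset.sum_nonneg (fun _ _ => by positivity))
      ⟨1, Finset.mem_univ _, ?_⟩
    rw [hAone, Matrix.one_mulVec]
    exact sum_norm_pos hx
  have hHdet : H.det ≠ 0 := by
    intro h0
    obtain ⟨v, hv, hHv⟩ := Matrix.exists_mulVec_eq_zero_iff.2 h0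
    have h1 := hq v
    rw [hHv, dotProduct_zero] at h1
    have h2 := hrpos v hv
    have h3 : r v = 0 := by exact_mod_cast h1.symm
    linarith
  have hHu : IsUnit H.det := isUnit_iff_ne_zero.2 hHdet
  have hHi : H * H⁻¹ = 1 := Matrix.mul_nonsing_inv H hHu
  have hiH : H⁻¹ * H = 1 := Matrix.nonsing_inv_mul H hHu
  have hHinj : ∀ u v : Fin n → ℂ, H *ᵥ u = H *ᵥ v → u = v := by
    intro u v h
    have := congrArg (fun w => H⁻¹ *ᵥ w) h
    simpa [Matrix.mulVec_mulVec, hiH] using this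
  let J : (Fin n → ℂ) →ₛₗ[starRingEnd ℂ] (Fin n → ℂ) :=
    { toFun := fun x => H⁻¹ *ᵥ star (M *ᵥ x)
      map_add' := by
        intro a b
        simp only [Matrix.mulVec_add, star_add]
      map_smul' := by
        intro a b
        simp only [Matrix.mulVec_smul, star_smul, RingHom.id_apply, starRingEnd_apply] }
  have hJdef : ∀ x, J x = H⁻¹ *ᵥ star (M *ᵥ x) := fun _ => rfl
  have hJ : ∀ x, H *ᵥ J x = star (M *ᵥ x) := by
    intro x
    rw [hJdef, Matrix.mulVec_mulVec, hHi, Matrix.one_mulVec]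
  have hstarT : ∀ (B : Matrix (Fin n) (Fin n) ℂ) (y : Fin n → ℂ), Bᴴ *ᵥ star y = star (Bᵀ *ᵥ y) := by
    intro B y
    funext i
    simp [Matrix.mulVec, dotProduct, Matrix.conjTranspose_apply, Matrix.transpose_apply]
  have hJcomm : ∀ g x, J (A g *ᵥ x) = A g *ᵥ J x := by
    intro g x
    apply hHinj
    have hinj : ∀ u v : Fin n → ℂ, (A g)ᴴ *ᵥ u = (A g)ᴴ *ᵥ v → u = v := by
      intro u v h
      have h1 : (A g⁻¹)ᴴ * (A g)ᴴ = 1 := by
        rw [← conjTranspose_mul, ← hAmul]
        simp [hAone]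
      have := congrArg (fun w => (A g⁻¹)ᴴ *ᵥ w) h
      simpa [Matrix.mulVec_mulVec, h1] using this
    apply hinj
    have hM' : ∀ g, (A g)ᵀ * M * A g = M := hM
    have e1 : (A g)ᴴ *ᵥ (H *ᵥ (A g *ᵥ J x)) = H *ᵥ J x := by
      rw [Matrix.mulVec_mulVec, Matrix.mulVec_mulVec, hHinv]
    have e2 : (A g)ᴴ *ᵥ star (M *ᵥ (A g *ᵥ x)) = star (M *ᵥ x) := by
      rw [hstarT, Matrix.mulVec_mulVec, Matrix.mulVec_mulVec, hM']
    rw [hJ, e1, e2, hJ]
  -- Schur
  let T : (Fin n → ℂ) →ₗ[ℂ] (Fin n → ℂ) := J.comp J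
  have hTdef : ∀ x, T x = J (J x) := fun _ => rfl
  have hTcomm : ∀ g, T ∘ₗ ρ g = ρ g ∘ₗ T := by
    intro g
    refine LinearMap.ext fun x => ?_
    simp only [LinearMap.comp_apply, hTdef, hA, hJcomm]
  obtain ⟨c, hc⟩ := Cfsg.Agent.Lib.Char.Integrality.exists_smul_id_of_commute ρ T hTcomm
  have hTc : ∀ x, J (J x) = c • x := by
    intro x
    rw [← hTdef, hc]
    rfl
  have hform : ∀ x, c * star x ⬝ᵥ H *ᵥ x = star (J x) ⬝ᵥ H *ᵥ J x := by
    intro x
    have h1 : star x ⬝ᵥ H *ᵥ J (J x) = c * star x ⬝ᵥ H *ᵥ x := by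
      rw [hTc, Matrix.mulVec_smul, dotProduct_smul, smul_eq_mul]
    rw [← h1, hJ (J x), hJ x]
    -- symmetry
    have h2 : x ⬝ᵥ M *ᵥ J x = J x ⬝ᵥ M *ᵥ x := by
      rw [Matrix.dotProduct_mulVec, dotProduct_comm, ← Matrix.mulVec_transpose, hMT]
    have h3 : star x ⬝ᵥ star (M *ᵥ J x) = star (x ⬝ᵥ M *ᵥ J x) := by
      simp [dotProduct, star_sum, mul_comm]
    have h4 : star (J x) ⬝ᵥ star (M *ᵥ x) = star (J x ⬝ᵥ M *ᵥ x) := by
      simp [dotProduct, star_sum, mul_comm]
    rw [h3, h4, h2]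
  -- positivity
  obtain ⟨x₀, hx₀⟩ : ∃ x₀, J x₀ ≠ 0 := by
    by_contra hall
    push Not at hall
    apply hM0
    ext i j
    have h1 := hJ (Pi.single j 1)
    rw [hall, Matrix.mulVec_zero] at h1
    have h2 : M *ᵥ Pi.single j 1 = 0 := by
      have := congrArg star h1
      simpa using this.symm
    have h3 := congrFun h2 i
    simpa [Matrix.mulVec_single_one] using h3
  have hx₀' : x₀ ≠ 0 := by
    rintro rfl
    simp at hx₀
  have hcval : c = ((r (J x₀) / r x₀ : ℝ) : ℂ) := by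
    have h1 := hform x₀
    rw [hq, hq] at h1
    have h2 : ((r x₀ : ℝ) : ℂ) ≠ 0 := by exact_mod_cast (hrpos _ hx₀').ne'
    push_cast
    field_simp
    exact h1
  let s : ℝ := Real.sqrt (r (J x₀) / r x₀)
  have hcpos : 0 < r (J x₀) / r x₀ := div_pos (hrpos _ hx₀) (hrpos _ hx₀')
  have hs : s * s = r (J x₀) / r x₀ := Real.mul_self_sqrt hcpos.le
  have hspos : 0 < s := Real.sqrt_pos.2 hcpos
  have hs0 : (s : ℂ) ≠ 0 := by exact_mod_cast hspos.ne'
  refine ⟨((s : ℂ)⁻¹) • J, ?_, ?_⟩
  · intro x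
    simp only [LinearMap.smul_apply, LinearMap.map_smulₛₗ, hTc, smul_smul]
    have h1 : (starRingEnd ℂ) (s : ℂ)⁻¹ * ((s : ℂ)⁻¹ * c) = 1 := by
      rw [hcval, ← hs]
      simp only [map_inv₀, Complex.conj_ofReal]
      push_cast
      field_simp
    rw [h1, one_smul]
  · intro g x
    simp only [LinearMap.smul_apply, hA, hJcomm]
    rw [Matrix.mulVec_smul]

end Forms

end Cfsg.Agent.Lib.CharFS.RealForm
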